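/-
The sum of squares on the coordinate space over the field with three elements, codes of vectors, and the central quotient of the reflection group of norm one from a family of elements of a group acting in the same way as the reflections.
-/
import Mathlib
import Cfsg.Agent.Lib.Fischer.M24.O8.Vec
import Cfsg.Agent.Lib.Fischer.Gen.QHom

set_option autoImplicit false

namespace Cfsg.Agent.Lib.Fischer.M24.O8.Sq

open QuadraticMap
open Cfsg.Agent.Lib.Classical.Orth.Basic Cfsg.Agent.Lib.Classical.Orth.Fischer3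
open Cfsg.Agent.Lib.Fischer.Gen.QHom
open Cfsg.Agent.Lib.Fischer.M24.O8 (dg dg_lt cast_mod3 coord_pos coord_neg)

/-- The sum of squares. -/
noncomputable def sqF (n : ℕ) : QuadraticForm (ZMod 3) (Fin n → ZMod 3) :=
  ∑ i : Fin n, QuadraticMap.linMulLin (LinearMap.proj i) (LinearMap.proj i)

theorem sqF_apply {n : ℕ} (x : Fin n → ZMod 3) : sqF n x = ∑ i, x i * x i := by
  simp [sqF, _root_.sum_apply]

theorem polar_sqF {n : ℕ} (x y : Fin n → ZMod 3) : polar (⇑(sqF n)) x y = 2 * ∑ i, x i * y i := by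
  simp only [polar, sqF_apply, Pi.add_apply, Finset.mul_sum, ← Finset.sum_sub_distrib]
  apply Finset.sum_congr rfl
  intro i _
  ring

theorem sqF_nondeg (n : ℕ) : (polarBilin (sqF n)).Nondegenerate := by
  apply Cfsg.Agent.Lib.Classical.Orth.Models.nondegenerate_of_separating
  intro x hx
  funext k
  have h := hx k
  rw [polar_sqF] at h
  have h2 : ∑ i, (Pi.single k 1 : Fin n → ZMod 3) i * x i = x k := by
    simp [Pi.single_apply]
  rw [h2] at h
  exact (mul_eq_zero.1 h).resolve_left (by decide)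

theorem gramDet_sqF (n : ℕ) : Cfsg.polarGramDet (⇑(sqF n)) = 2 ^ n := by
  unfold Cfsg.polarGramDet
  have h : (Matrix.of fun i j : Fin n => polar (⇑(sqF n)) (Pi.single i 1) (Pi.single j 1)) = Matrix.scalar (Fin n) (2 : ZMod 3) := by
    ext i j
    rw [Matrix.of_apply, polar_sqF]
    by_cases e : i = j
    · subst e
      simp [Pi.single_apply, Matrix.scalar_apply]
    · have h1 : ∑ a, (Pi.single i 1 : Fin n → ZMod 3) a * (Pi.single j 1 : Fin n → ZMod 3) a = 0 := by
        apply Finset.sum_eq_zero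
        intro a _
        by_cases e1 : a = i
        · subst e1
          simp [Pi.single_apply, e]
        · simp [Pi.single_apply, e1]
      rw [h1, mul_zero, Matrix.scalar_apply, Matrix.diagonal_apply_ne _ e]
  rw [h, Matrix.scalar_apply, Matrix.det_diagonal]
  simp

/-- The vector of a code. -/
def vecN (n m : ℕ) : Fin n → ZMod 3 := fun i => ((dg m i : ℕ) : ZMod 3)

/-- A sum over the first numbers. -/
def sumD (f : ℕ → ℕ) : ℕ → ℕ
  | 0 => 0
  | n + 1 => Nat.add (sumD f n) (f n)

theorem sum_cast (f : ℕ → ℕ) (n : ℕ) : ∑ i : Fin n, ((f i : ℕ) : ZMod 3) = ((sumD f n : ℕ) : ZMod 3) := by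
  induction n with
  | zero => simp [sumD]
  | succ n ih =>
    rw [Fin.sum_univ_castSucc]
    simp only [Fin.val_castSucc, Fin.val_last]
    rw [ih]
    show _ = ((sumD f n + f n : ℕ) : ZMod 3)
    push_cast
    rfl

/-- The value of the form. -/
def qN (n m : ℕ) : ℕ := sumD (fun k => Nat.mul (dg m k) (dg m k)) n

/-- The polar form. -/
def pN (n u w : ℕ) : ℕ := Nat.mul 2 (sumD (fun k => Nat.mul (dg u k) (dg w k)) n)

theorem Q_vecN (n m : ℕ) : sqF n (vecN n m) = ((qN n m : ℕ) : ZMod 3) := by
  rw [sqF_apply, qN, ← sum_cast]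
  apply Finset.sum_congr rfl
  intro i _
  simp only [vecN]
  exact (Nat.cast_mul _ _).symm

theorem polar_vecN (n u w : ℕ) : polar (⇑(sqF n)) (vecN n u) (vecN n w) = ((pN n u w : ℕ) : ZMod 3) := by
  rw [polar_sqF]
  show _ = ((2 * sumD _ n : ℕ) : ZMod 3)
  push_cast
  rw [← sum_cast]
  congr 1
  apply Finset.sum_congr rfl
  intro i _
  simp only [vecN]
  exact (Nat.cast_mul _ _).symm

/-- A test on the first positions. -/
def allN (f : ℕ → Bool) : ℕ → Bool
  | 0 => true
  | n + 1 => allN f n && f n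

theorem allN_spec {f : ℕ → Bool} {n : ℕ} (h : allN f n = true) : ∀ k, k < n → f k = true := by
  induction n with
  | zero => intro k hk; omega
  | succ n ih =>
    simp only [allN, Bool.and_eq_true] at h
    intro k hk
    rcases Nat.lt_succ_iff_lt_or_eq.1 hk with h1 | h1
    · exact ih h.1 k h1
    · rw [h1]
      exact h.2

/-- The test that the reflection of a code `u` takes the code `w` to `j` or to its opposite. -/
def rOK (n u w j : ℕ) : Bool :=
  allN (fun k => Nat.beq (Nat.mod (Nat.add (dg w k) (Nat.mul (Nat.mul 2 (pN n u w)) (dg u k))) 3) (dg j k)) n ||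
    allN (fun k => Nat.beq (Nat.mod (Nat.add (dg w k) (Nat.mul (Nat.mul 2 (pN n u w)) (dg u k))) 3) (Nat.mod (Nat.mul 2 (dg j k)) 3)) n

theorem rOK_spec {n u w j : ℕ} (hu : sqF n (vecN n u) = 1) (hu0 : sqF n (vecN n u) ≠ 0) (h : rOK n u w j = true) :
    act (reflectionIso (sqF n) (vecN n u) hu0) (vecN n w) = vecN n j ∨
      act (reflectionIso (sqF n) (vecN n u) hu0) (vecN n w) = -vecN n j := by
  rw [reflectionIso_act, hu, inv_one, one_mul, polar_vecN]
  simp only [rOK, Bool.or_eq_true] at h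
  rcases h with h | h
  · left
    have h1 := allN_spec h
    funext e
    have h2 := Nat.eq_of_beq_eq_true (h1 _ e.2)
    have h3 := coord_pos (a := dg w e) (s := pN n u w) (b := dg u e) h2
    simpa [vecN] using h3
  · right
    have h1 := allN_spec h
    funext e
    have h2 := Nat.eq_of_beq_eq_true (h1 _ e.2)
    have h3 := coord_neg (a := dg w e) (s := pN n u w) (b := dg u e) h2
    simpa [vecN] using h3

/-- The test that two codes have the same digits. -/
def eqN (n a b : ℕ) : Bool := allN (fun k => Nat.beq (dg a k) (dg b k)) n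

/-- The test that two codes are opposite. -/
def ngN (n a b : ℕ) : Bool := allN (fun k => Nat.beq (dg a k) (Nat.mod (Nat.mul 2 (dg b k)) 3)) n

theorem eqN_spec {n a b : ℕ} (h : eqN n a b = true) : vecN n a = vecN n b := by
  funext e
  have h1 := Nat.eq_of_beq_eq_true (allN_spec h _ e.2)
  simp only [vecN]
  rw [h1]

theorem ngN_spec {n a b : ℕ} (h : ngN n a b = true) : vecN n a = -vecN n b := by
  funext e
  have h1 : dg a e = 2 * dg b e % 3 := Nat.eq_of_beq_eq_true (allN_spec h _ e.2)
  simp only [vecN, Pi.neg_apply]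
  rw [h1, cast_mod3]
  push_cast
  have h3 : (3 : ZMod 3) = 0 := by decide
  linear_combination (dg b e : ZMod 3) * h3

/-- Every vector has a code, for at most eight coordinates. -/
theorem exists_codeN {n : ℕ} (hn : n ≤ 8) (v : Fin n → ZMod 3) : ∃ m, m < 6561 ∧ vecN n m = v := by
  let a : ℕ → ℕ := fun k => if h : k < n then (v ⟨k, h⟩).val else 0
  have ha : ∀ k, a k < 3 := by
    intro k
    simp only [a]
    split_ifs
    · exact ZMod.val_lt _
    · norm_num
  obtain ⟨hm, h0, h1, h2, h3, h4, h5, h6, h7⟩ := Cfsg.Agent.Lib.Fischer.M24.O8.dg_of_digits (ha 0) (ha 1) (ha 2) (ha 3) (ha 4) (ha 5) (ha 6) (ha 7) rfl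
  refine ⟨_, hm, ?_⟩
  funext i
  have hi : (i : ℕ) < 8 := by
    have := i.2
    omega
  have key : dg (a 0 + 3 * a 1 + 9 * a 2 + 27 * a 3 + 81 * a 4 + 243 * a 5 + 729 * a 6 + 2187 * a 7) i = a i := by
    have : (i : ℕ) = 0 ∨ (i : ℕ) = 1 ∨ (i : ℕ) = 2 ∨ (i : ℕ) = 3 ∨ (i : ℕ) = 4 ∨ (i : ℕ) = 5 ∨ (i : ℕ) = 6 ∨ (i : ℕ) = 7 := by omega
    rcases this with e | e | e | e | e | e | e | e <;> rw [e] <;> assumption
  show ((dg _ i : ℕ) : ZMod 3) = v i
  rw [key]
  simp only [a]
  rw [dif_pos i.2]
  exact ZMod.natCast_zmod_val _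

/-- Reflections in vectors of norm one agree only for equal or opposite vectors. -/
theorem refl_inj {ι : Type} [Fintype ι] [DecidableEq ι] {Q : QuadraticForm (ZMod 3) (ι → ZMod 3)} {v w : ι → ZMod 3} (hv : Q v = 1) (hw : Q w = 1) (hv0 : Q v ≠ 0) (hw0 : Q w ≠ 0)
    (h : reflectionIso Q v hv0 = reflectionIso Q w hw0) : v = w ∨ v = -w := by
  have h1 := congrArg (fun g => act g v) h
  simp only [reflectionIso_act, hv, hw, inv_one, one_mul, polar_self_eq] at h1
  rw [polar_comm] at h1
  set c := polar (⇑Q) v w with hc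
  have h2 : (v - (2 * (1 : ZMod 3)) • v) = -v := by
    funext e
    simp only [Pi.sub_apply, Pi.smul_apply, smul_eq_mul, Pi.neg_apply]
    ring
  rw [h2] at h1
  have hc3 : ∀ x : ZMod 3, x = 0 ∨ x = 1 ∨ x = 2 := by decide
  have hw' : -v = v - c • w := h1
  have h3 : (2 : ZMod 3) • v = c • w := by
    funext e
    have := congrFun hw' e
    simp only [Pi.neg_apply, Pi.sub_apply, Pi.smul_apply, smul_eq_mul] at this ⊢
    linear_combination -this
  rcases hc3 c with e | e | e
  · rw [e, zero_smul] at h3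
    have h4 : v = 0 := by
      funext i
      have h5 := congrFun h3 i
      simp only [Pi.smul_apply, smul_eq_mul, Pi.zero_apply] at h5
      exact (mul_eq_zero.1 h5).resolve_left (by decide)
    rw [h4, map_zero] at hv
    exact absurd hv (by decide)
  · rw [e, one_smul] at h3
    right
    funext i
    have h5 := congrFun h3 i
    simp only [Pi.smul_apply, smul_eq_mul, Pi.neg_apply] at h5 ⊢
    have h6 : (3 : ZMod 3) = 0 := by decide
    linear_combination -h5 + (v i) * h6
  · rw [e] at h3
    left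
    funext i
    have h5 := congrFun h3 i
    simp only [Pi.smul_apply, smul_eq_mul] at h5
    have h7 : (2 : ZMod 3) * (v i - w i) = 0 := by linear_combination h5
    have h8 := (mul_eq_zero.1 h7).resolve_left (by decide)
    linear_combination h8

section family

variable {n : ℕ} {T A : Type*} [Group A] (a : T → A) (c : T → ℕ)

/-- **The central quotient of the reflection group from a family.** -/
theorem iso_of_family (hn : 5 ≤ n)
    (hQ : ∀ i, ((qN n (c i) : ℕ) : ZMod 3) = 1) (ha1 : ∀ i, a i * a i = 1) (ha : Function.Injective a)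
    (hact : ∀ i j, ∃ j', a i * a j * (a i)⁻¹ = a j' ∧ rOK n (c i) (c j) (c j') = true)
    (hb : ∀ i j, vecN n (c i) = vecN n (c j) ∨ vecN n (c i) = -vecN n (c j) → i = j)
    (hsurj : ∀ v : Fin n → ZMod 3, sqF n v = 1 → ∃ i, v = vecN n (c i) ∨ v = -vecN n (c i))
    (hz : ∀ x ∈ Subgroup.closure (Set.range a), (∀ j, x * a j * x⁻¹ = a j) → x = 1) :
    Nonempty (↥(Subgroup.closure (Set.range a)) ≃* (↥(Cfsg.reflectionSubgroup (⇑(sqF n)) 1) ⧸ Subgroup.center ↥(Cfsg.reflectionSubgroup (⇑(sqF n)) 1))) := by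
  classical
  have hQ1 : ∀ i, sqF n (vecN n (c i)) = 1 := fun i => by rw [Q_vecN, hQ]
  have hQ0 : ∀ i, sqF n (vecN n (c i)) ≠ 0 := fun i => by rw [hQ1]; exact one_ne_zero
  let bb : T → ↥(Cfsg.isometryGroup (ZMod 3) (⇑(sqF n))) := fun i => reflectionIso (sqF n) (vecN n (c i)) (hQ0 i)
  have hcongr : ∀ {v w : Fin n → ZMod 3} (_ : v = w) (hv : sqF n v ≠ 0) (hw : sqF n w ≠ 0), reflectionIso (sqF n) v hv = reflectionIso (sqF n) w hw := by
    rintro v w rfl hv hw
    rfl
  have hbinj : Function.Injective bb := by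
    intro i j h
    exact hb i j (refl_inj (hQ1 i) (hQ1 j) _ _ h)
  have hclos : Subgroup.closure (Set.range bb) = Cfsg.reflectionSubgroup (⇑(sqF n)) 1 := by
    apply le_antisymm
    · rw [Subgroup.closure_le]
      rintro _ ⟨q, rfl⟩
      exact reflection_mem_R (hQ0 q) (hQ1 q)
    · rw [Cfsg.reflectionSubgroup, Subgroup.closure_le]
      intro g hg
      obtain ⟨v, hv0, hv, rfl⟩ := eq_reflectionIso (Q := sqF n) (c := 1) one_ne_zero hg
      obtain ⟨i, hi | hi⟩ := hsurj v hv
      · have : reflectionIso (sqF n) v hv0 = bb i := hcongr hi _ _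
        rw [this]
        exact Subgroup.subset_closure ⟨i, rfl⟩
      · have h1 : reflectionIso (sqF n) v hv0 = reflectionIso (sqF n) (-vecN n (c i)) (by rw [← hi]; exact hv0) := hcongr hi _ _
        have h2 := reflection_neg (Q := sqF n) (hQ0 i) (by rw [← hi]; exact hv0)
        rw [h1, h2]
        exact Subgroup.subset_closure ⟨i, rfl⟩
  -- the action
  choose f hf1 hf2 using hact
  have hinv : ∀ i, Function.Involutive (f i) := by
    intro i j
    apply ha
    rw [← hf1, ← hf1]
    have hi : (a i)⁻¹ = a i := inv_eq_of_mul_eq_one_left (ha1 i)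
    rw [hi]
    calc a i * (a i * a j * a i) * a i = (a i * a i) * a j * (a i * a i) := by group
      _ = a j := by rw [ha1 i]; group
  have hmp : ∀ i, ∃ π, MP a bb π (a i) (bb i) := by
    intro i
    refine ⟨(hinv i).toPerm, hf1 i, ?_⟩
    intro j
    have h2 : bb i * bb j * (bb i)⁻¹ = _ := conj_reflectionIso (bb i) (vecN n (c j)) (hQ0 j)
    rw [h2]
    have h3 := rOK_spec (hQ1 i) (hQ0 i) (hf2 i j)
    rcases h3 with h3 | h3
    · exact hcongr h3 _ _
    · have h4 : sqF n (-vecN n (c (f i j))) ≠ 0 := by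
        rw [← h3, Q_act]
        exact hQ0 j
      exact (hcongr h3 _ h4).trans (reflection_neg (Q := sqF n) (hQ0 _) h4)
  obtain ⟨ρ, -, h2, h3⟩ := exists_hom (a := a) (b := bb) hmp ha hbinj hz
  -- the quotient
  let e : ↥(Cfsg.reflectionSubgroup (⇑(sqF n)) 1) ≃* ↥(Subgroup.closure (Set.range bb)) := MulEquiv.subgroupCongr hclos.symm
  let ρ' : ↥(Cfsg.reflectionSubgroup (⇑(sqF n)) 1) →* A := ρ.comp e.toMonoidHom
  have hrange : ρ'.range = Subgroup.closure (Set.range a) := by
    rw [← h2]
    ext x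
    constructor
    · rintro ⟨y, rfl⟩
      exact ⟨e y, rfl⟩
    · rintro ⟨y, rfl⟩
      refine ⟨e.symm y, ?_⟩
      show ρ (e (e.symm y)) = _
      rw [MulEquiv.apply_symm_apply]
  have hker : ρ'.ker = Subgroup.center ↥(Cfsg.reflectionSubgroup (⇑(sqF n)) 1) := by
    ext y
    rw [MonoidHom.mem_ker, Subgroup.mem_center_iff]
    have h4 : ρ' y = 1 ↔ ∀ j, y.1 * bb j * y.1⁻¹ = bb j := h3 (e y)
    rw [h4]
    constructor
    · intro h g
      have hg : g.1 ∈ Subgroup.closure (Set.range bb) := by
        rw [hclos]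
        exact g.2
      apply Subtype.ext
      show g.1 * y.1 = y.1 * g.1
      have key : ∀ z ∈ Subgroup.closure (Set.range bb), z * y.1 = y.1 * z := by
        intro z hz'
        induction hz' using Subgroup.closure_induction with
        | mem x hx =>
          obtain ⟨j, rfl⟩ := hx
          calc bb j * y.1 = (y.1 * bb j * y.1⁻¹) * y.1 := by rw [h]
            _ = y.1 * bb j := by group
        | one => simp
        | mul u v _ _ hu hv => rw [mul_assoc, hv, ← mul_assoc, hu, mul_assoc]
        | inv u _ hu => exact (Commute.inv_left (show Commute u y.1 from hu)).eq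
      exact key _ hg
    · intro h j
      have h5 : bb j ∈ Cfsg.reflectionSubgroup (⇑(sqF n)) 1 := reflection_mem_R (hQ0 j) (hQ1 j)
      have h6 := congrArg Subtype.val (h ⟨bb j, h5⟩)
      have h7 : bb j * y.1 = y.1 * bb j := h6
      rw [← h7]
      group
  exact ⟨(MulEquiv.subgroupCongr hrange.symm).trans ((QuotientGroup.quotientKerEquivRange ρ').symm.trans (QuotientGroup.quotientMulEquivOfEq hker))⟩

end family

end Cfsg.Agent.Lib.Fischer.M24.O8.Sq
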