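/-
Two families of transpositions of the explicit `Fi₂₂` and the reflection groups of the sum of squares in dimensions six and seven.
-/
import Mathlib
import Cfsg.Agent.Lib.Fischer.M24.O8.SqVec
import Cfsg.Agent.Lib.Fischer.M24.O8.SqData
import Cfsg.Agent.Lib.Fischer.M22.Rows.A3
import Cfsg.Agent.Lib.Fischer.M23.K00
import Cfsg.Agent.Lib.Classical.Orth.Simple
import Cfsg.Agent.Lib.Classical.Orth.Models

set_option autoImplicit false
set_option maxRecDepth 100000

namespace Cfsg.Agent.Lib.Fischer.M24.O8.Sq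

open Cfsg Cfsg.Agent.Lib.Compute.ToddCoxeterCore Cfsg.Agent.Lib.Compute.TCChain
open Cfsg.Agent.Lib.Compute.ToddCoxeterPresented hiding TT
open Cfsg.Agent.Lib.Fischer.M22.Explicit Cfsg.Agent.Lib.Fischer.M22.Rows
open Cfsg.Agent.Lib.Fischer.M24.O8 (dg dg_lt cast_mod3)

/-- `if b then t else e` on booleans, through the recursor. -/
local notation "bB(" b ", " t ", " e ")" => Bool.rec (motive := fun _ => Bool) e t b

/-- The number of the first digits of a code. -/
def num (n m : ℕ) : ℕ := sumD (fun k => Nat.mul (dg m k) (Nat.pow 3 k)) n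

/-- The number of the first digits of the opposite of a code. -/
def numNeg (n m : ℕ) : ℕ := sumD (fun k => Nat.mul (Nat.mod (Nat.mul 2 (dg m k)) 3) (Nat.pow 3 k)) n

theorem sumD_congr {f g : ℕ → ℕ} {n : ℕ} (h : ∀ k, k < n → f k = g k) : sumD f n = sumD g n := by
  induction n with
  | zero => rfl
  | succ n ih =>
    show Nat.add (sumD f n) (f n) = Nat.add (sumD g n) (g n)
    rw [ih (fun k hk => h k (by omega)), h n (by omega)]

theorem num_eq {n a b : ℕ} (h : vecN n a = vecN n b) : num n a = num n b := by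
  apply sumD_congr
  intro k hk
  have h1 : ((dg a k : ℕ) : ZMod 3) = ((dg b k : ℕ) : ZMod 3) := congrFun h ⟨k, hk⟩
  have h2 := (ZMod.natCast_eq_natCast_iff' _ _ 3).1 h1
  rw [Nat.mod_eq_of_lt (dg_lt _ _), Nat.mod_eq_of_lt (dg_lt _ _)] at h2
  show dg a k * 3 ^ k = dg b k * 3 ^ k
  rw [h2]

theorem num_neg {n a b : ℕ} (h : vecN n a = -vecN n b) : num n a = numNeg n b := by
  apply sumD_congr
  intro k hk
  have h1 : ((dg a k : ℕ) : ZMod 3) = -((dg b k : ℕ) : ZMod 3) := congrFun h ⟨k, hk⟩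
  have h3 : (3 : ZMod 3) = 0 := by decide
  have h1' : ((dg a k : ℕ) : ZMod 3) = ((2 * dg b k : ℕ) : ZMod 3) := by
    rw [h1]
    push_cast
    linear_combination -(dg b k : ZMod 3) * h3
  have h2 := (ZMod.natCast_eq_natCast_iff' _ _ 3).1 h1'
  rw [Nat.mod_eq_of_lt (dg_lt _ _)] at h2
  show dg a k * 3 ^ k = (2 * dg b k % 3) * 3 ^ k
  rw [h2]

section fam

variable (n : ℕ) (c li : ℕ → ℕ)

/-- The test of a label. -/
noncomputable def chk1 (q : ℕ) : Bool :=
  frc (c q) fun u => bB(Nat.blt 0 u, Nat.beq (Nat.mod (qN n u) 3) 1 && Nat.beq (li (num n u)) q && Nat.beq (li (numNeg n u)) q, true)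

/-- The test at a code. -/
noncomputable def chk2 (m : ℕ) : Bool :=
  bB(Nat.beq (Nat.mod (qN n m) 3) 1, frc (li (num n m)) fun q => Nat.blt q 3510 && Nat.blt 0 (c q) && (eqN n m (c q) || ngN n m (c q)), true)

/-- The test of the action. -/
noncomputable def chk3 (i : ℕ) : Bool :=
  frc (c i) fun u => bB(Nat.blt 0 u,
    allFrom (fun j => frc (c j) fun w => bB(Nat.blt 0 w, frc (tv i j) fun j' => frc (c j') fun w' => Nat.blt 0 w' && rOK n u w w', true)) (nat_lit 3510) (nat_lit 0), true)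

/-- The family. -/
abbrev Fq : Type := {q : Fin NN // 0 < c q}

/-- The family in the group. -/
noncomputable def aF (q : Fq c) : G0 := t q.1

theorem at_lt' {f : ℕ → Bool} {m : ℕ} (h : allFrom f m 0 = true) {q : ℕ} (hq : q < m) : f q = true :=
  allFrom_spec h q (Nat.zero_le _) (by omega)

/-- **The isomorphism from the tests.** -/
theorem iso_of_chk (hn5 : 5 ≤ n) (hn : n ≤ 8) (h1 : allFrom (chk1 n c li) (nat_lit 3510) (nat_lit 0) = true) (h2 : allFrom (chk2 n c li) (nat_lit 6561) (nat_lit 0) = true)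
    (h3 : allFrom (chk3 n c) (nat_lit 3510) (nat_lit 0) = true)
    (hz : ∀ x ∈ Subgroup.closure (Set.range (aF c)), (∀ j, x * aF c j * x⁻¹ = aF c j) → x = 1) :
    Nonempty (↥(Subgroup.closure (Set.range (aF c))) ≃*
      (↥(Cfsg.reflectionSubgroup (⇑(sqF n)) 1) ⧸ Subgroup.center ↥(Cfsg.reflectionSubgroup (⇑(sqF n)) 1))) := by
  have hc1 : ∀ q : Fq c, Nat.mod (qN n (c q.1)) 3 = 1 ∧ li (num n (c q.1)) = q.1 ∧ li (numNeg n (c q.1)) = q.1 := by
    intro q
    have h4 : chk1 n c li q.1 = true := at_lt' h1 q.1.2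
    have h5 : Nat.blt 0 (c q.1) = true := Nat.ble_eq_true_of_le q.2
    simp only [chk1, frc_eq, h5, Bool.and_eq_true] at h4
    exact ⟨Nat.eq_of_beq_eq_true h4.1.1, Nat.eq_of_beq_eq_true h4.1.2, Nat.eq_of_beq_eq_true h4.2⟩
  refine iso_of_family (T := Fq c) (n := n) (aF c) (fun q => c q.1) hn5 ?_ ?_ ?_ ?_ ?_ ?_ hz
  · intro i
    have h4 := (hc1 i).1
    rw [← cast_mod3]
    have h5 : qN n (c i.1) % 3 = 1 := h4
    rw [h5]
    rfl
  · intro i
    exact t_sq _
  · intro i j h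
    exact Subtype.ext (t_inj h)
  · intro i j
    have h4 : chk3 n c i.1 = true := at_lt' h3 i.1.2
    have h5 : Nat.blt 0 (c i.1) = true := Nat.ble_eq_true_of_le i.2
    simp only [chk3, frc_eq, h5] at h4
    have h6 := at_lt' h4 j.1.2
    have h7 : Nat.blt 0 (c j.1) = true := Nat.ble_eq_true_of_le j.2
    simp only [frc_eq, h7, Bool.and_eq_true] at h6
    have h8 : ((φ (t i.1) j.1 : Fin NN) : ℕ) = tv i.1 j.1 := tv_spec i.1 j.1
    rw [← h8] at h6
    refine ⟨⟨φ (t i.1) j.1, Nat.le_of_ble_eq_true h6.1⟩, t_conj _ _, h6.2⟩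
  · intro i j h
    rcases h with h | h
    · have h4 := num_eq h
      apply Subtype.ext
      apply Fin.ext
      rw [← (hc1 i).2.1, h4, (hc1 j).2.1]
    · have h4 := num_neg h
      apply Subtype.ext
      apply Fin.ext
      rw [← (hc1 i).2.1, h4, (hc1 j).2.2]
  · intro v hv
    obtain ⟨m, hm, rfl⟩ := exists_codeN hn v
    have h4 : chk2 n c li m = true := at_lt' h2 hm
    have h5 : qN n m % 3 = 1 := by
      rw [Q_vecN] at hv
      have h6 : ((qN n m : ℕ) : ZMod 3) = ((1 : ℕ) : ZMod 3) := by simpa using hv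
      exact (ZMod.natCast_eq_natCast_iff' _ _ 3).1 h6
    have h7 : Nat.beq (Nat.mod (qN n m) 3) 1 = true := by
      have : Nat.mod (qN n m) 3 = 1 := h5
      rw [this]
      rfl
    simp only [chk2, h7, frc_eq, Bool.and_eq_true, Bool.or_eq_true] at h4
    obtain ⟨⟨h8, h9⟩, h10⟩ := h4
    refine ⟨⟨⟨li (num n m), Nat.le_of_ble_eq_true h8⟩, Nat.le_of_ble_eq_true h9⟩, ?_⟩
    rcases h10 with h10 | h10
    · exact Or.inl (eqN_spec h10)
    · exact Or.inr (ngN_spec h10)

end fam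

end Cfsg.Agent.Lib.Fischer.M24.O8.Sq
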