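/-
The tests for the families of transpositions of the explicit `Fi₂₂` in dimension six.
-/
import Mathlib
import Cfsg.Agent.Lib.Fischer.M24.O8.Fam

set_option autoImplicit false
set_option maxRecDepth 100000

namespace Cfsg.Agent.Lib.Fischer.M24.O8.Sq

open Cfsg Cfsg.Agent.Lib.Compute.ToddCoxeterCore

/-! ### Dimension six -/

/-- The code of a label. -/
def c6 (q : ℕ) : ℕ := Nat.land (Nat.shiftRight Data.c6T (Nat.mul 10 q)) 1023

/-- The label of a code. -/
def l6 (m : ℕ) : ℕ := Nat.land (Nat.shiftRight Data.i6T (Nat.mul 12 m)) 4095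

theorem chk6_1 : allFrom (chk1 6 c6 l6) (nat_lit 3510) (nat_lit 0) = true := by decide +kernel

theorem chk6_2 : allFrom (chk2 6 c6 l6) (nat_lit 6561) (nat_lit 0) = true := by decide +kernel

theorem chk6_3 : allFrom (chk3 6 c6) (nat_lit 3510) (nat_lit 0) = true := by decide +kernel

end Cfsg.Agent.Lib.Fischer.M24.O8.Sq
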