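/-
Transport of the predicates of the types `M(22)`, `M(23)` along isomorphisms; central quotients given by surjections.
-/
import Mathlib
import Cfsg.Agent.Lib.Fischer.Gen.DropPrim
import Cfsg.Agent.Lib.Fischer.Gen.Star

set_option autoImplicit false

namespace Cfsg.Agent.Lib.Fischer.M24.O8.Ty

open Cfsg Cfsg.Agent.Lib.Fischer.Local Cfsg.Agent.Lib.Fischer.Gen.DropPrim Cfsg.Agent.Lib.Fischer.Gen.Star

/-- The central quotient of a group with a trivial centre. -/
noncomputable def quotBot {P : Type*} [Group P] (h : Subgroup.center P = ⊥) : P ⧸ Subgroup.center P ≃* P :=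
  (QuotientGroup.quotientMulEquivOfEq h).trans QuotientGroup.quotientBot

/-- The central quotient given by a surjection with the centre as kernel. -/
theorem exists_quot_equiv {P T : Type*} [Group P] [Group T] (π : P →* T) (hs : Function.Surjective π) (hk : π.ker = Subgroup.center P) :
    ∃ e : (P ⧸ Subgroup.center P) ≃* T, ∀ x : P, e (x : P ⧸ Subgroup.center P) = π x :=
  ⟨(QuotientGroup.quotientMulEquivOfEq hk.symm).trans (QuotientGroup.quotientKerEquivOfSurjective π hs), fun _ => rfl⟩

/-- An element of a closure commuting with the generators lies in the centre of the closure. -/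
theorem mem_center_closure {G : Type*} [Group G] {A : Set G} {x : G} (hx : x ∈ Subgroup.closure A) (hc : ∀ a ∈ A, x * a * x⁻¹ = a) :
    (⟨x, hx⟩ : ↥(Subgroup.closure A)) ∈ Subgroup.center ↥(Subgroup.closure A) := by
  have h : Subgroup.closure A ≤ Subgroup.centralizer ({x} : Set G) := by
    apply (Subgroup.closure_le _).2
    intro a ha
    rw [SetLike.mem_coe, Subgroup.mem_centralizer_singleton_iff]
    have := hc a ha
    rw [mul_inv_eq_iff_eq_mul] at this
    exact this.symm
  rw [Subgroup.mem_center_iff]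
  rintro ⟨y, hy⟩
  apply Subtype.ext
  exact Subgroup.mem_centralizer_singleton_iff.1 (h hy)

theorem eq_one_of_center_bot {G : Type*} [Group G] {A : Set G} (h : Subgroup.center ↥(Subgroup.closure A) = ⊥) {x : G}
    (hx : x ∈ Subgroup.closure A) (hc : ∀ a ∈ A, x * a * x⁻¹ = a) : x = 1 := by
  have h1 := mem_center_closure hx hc
  rw [h, Subgroup.mem_bot] at h1
  exact congrArg Subtype.val h1

/-- The image of the distinguished set in a central quotient given by a surjection. -/
theorem SS_eq_preimage {G T : Type*} [Group G] [Group T] {D : Set G} {d : G} (π : ↥(KK D d) →* T) (e : TT' D d ≃* T)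
    (he : ∀ x : ↥(KK D d), e (x : TT' D d) = π x) {B : Set T}
    (h1 : ∀ x : ↥(KK D d), (x : G) ∈ Dlt D d → π x ∈ B)
    (h2 : ∀ y ∈ B, ∃ x : ↥(KK D d), (x : G) ∈ Dlt D d ∧ π x = y) : e ⁻¹' B = SS D d := by
  ext q
  constructor
  · intro hq
    obtain ⟨x, hx, hx'⟩ := h2 _ hq
    refine ⟨x, hx, ?_⟩
    apply e.injective
    rw [he, hx']
  · rintro ⟨x, hx, rfl⟩
    show e (x : TT' D d) ∈ B
    rw [he]
    exact h1 x hx

section Transport

variable {K T : Type*} [Group K] [Group T] (f : K →* T) (hf : Function.Injective f) {B : Set T}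

/-- The image of the transpositions under the transport of the central quotients. -/
theorem qcongr_preimage_SS {x' : K} (hD : Dlt B (f x') ⊆ Set.range f) :
    (qcongr (isoS f hf hD)) ⁻¹' (SS B (f x')) = SS (f ⁻¹' B) x' := by
  ext q
  constructor
  · intro hq
    obtain ⟨v, hv, hv'⟩ := hq
    set g := isoS f hf (x' := x') hD with hg
    refine ⟨g.symm v, ?_, ?_⟩
    · have h3 : ((g (g.symm v) : ↥(Sx B (f x'))) : T) = (v : T) := congrArg Subtype.val (g.apply_symm_apply v)
      have h4 : ((g (g.symm v) : ↥(Sx B (f x'))) : T) = f ((g.symm v : ↥(Sx (f ⁻¹' B) x')) : K) := rfl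
      have hm : (v : T) ∈ Dlt B (f x') := hv
      have hm2 : f ((g.symm v : ↥(Sx (f ⁻¹' B) x')) : K) ∈ Dlt B (f x') := by
        rw [← h4, h3]
        exact hm
      refine ⟨hm2.1, ?_, ?_⟩
      · intro k
        exact hm2.2.1 (congrArg f k)
      · apply hf
        rw [map_mul, map_mul]
        exact hm2.2.2
    · apply (qcongr g).injective
      rw [← hv']
      have h5 : (g (g.symm v) : ↥(KK B (f x'))) = v := g.apply_symm_apply v
      show QuotientGroup.mk (g (g.symm v) : ↥(KK B (f x'))) = (QuotientGroup.mk v : TT' B (f x'))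
      rw [h5]
      rfl
  · rintro ⟨u, hu, rfl⟩
    refine ⟨isoS f hf (x' := x') hD u, ?_, rfl⟩
    show f (u : K) ∈ B ∧ f (u : K) ≠ f x' ∧ Commute (f x') (f (u : K))
    refine ⟨hu.1, fun k => hu.2.1 (hf k), ?_⟩
    show f x' * f u = f u * f x'
    rw [← map_mul, ← map_mul, hu.2.2.eq]

/-- `IsOfTypeM23` is invariant under isomorphism. -/
theorem isOfTypeM23_of_equiv (e : K ≃* T) {B : Set T} (h : IsOfTypeM23 T B) : IsOfTypeM23 K (e ⁻¹' B) := by
  obtain ⟨hZ, d, hd, c, hc, hdc, h22, c₃, hc₃, hR⟩ := h
  have hZ' : Subgroup.center K = ⊥ := by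
    have := Cfsg.Agent.Lib.Components.Quasisimple.map_center_of_mulEquiv e
    rw [eq_bot_iff]
    intro k hk
    have h1 : e k ∈ Subgroup.center T := by
      rw [← this]
      exact ⟨k, hk, rfl⟩
    rw [hZ, Subgroup.mem_bot] at h1
    rw [Subgroup.mem_bot]
    exact e.map_eq_one_iff.1 h1
  have hD : Dlt B (e.toMonoidHom (e.symm d)) ⊆ Set.range e.toMonoidHom := fun y _ => ⟨e.symm y, by simp⟩
  have e1 : e.toMonoidHom (e.symm d) = d := e.apply_symm_apply d
  have e2 : e.toMonoidHom (e.symm c) = c := e.apply_symm_apply c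
  refine ⟨hZ', e.symm d, by simpa using hd, e.symm c, by simpa using hc, ?_, ?_, c₃, hc₃, ?_⟩
  · intro k
    apply hdc
    have := k.map e.toMulHom
    simpa using this
  · have h1 := isOfTypeM22_of_equiv (qcongr (isoS e.toMonoidHom e.injective (x' := e.symm d) hD))
      (B := SS B (e.toMonoidHom (e.symm d))) (by rw [e1]; exact h22)
    have h2 := qcongr_preimage_SS e.toMonoidHom e.injective (B := B) (x' := e.symm d) hD
    rw [h2] at h1
    exact h1
  · have h1 := projRefl_of_iso (qcongr (isoR e.toMonoidHom e.injective (x' := e.symm d) (c' := e.symm c) hD))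
      (n := 7) (μ := -c₃) (c := c₃) (by rw [e1, e2]; exact hR)
    exact h1

end Transport

/-- A normal subgroup along an isomorphism. -/
theorem exists_normal_of_equiv {X Y : Type*} [Group X] [Group Y] (e : X ≃* Y) (N : Subgroup Y) [N.Normal] :
    ∃ (M : Subgroup X) (_ : M.Normal), Nonempty (↥M ≃* ↥N) ∧ Nonempty (X ⧸ M ≃* Y ⧸ N) := by
  have hm : (N.comap e.toMonoidHom).map e.toMonoidHom = N := Subgroup.map_comap_eq_self_of_surjective e.surjective N
  refine ⟨N.comap e.toMonoidHom, inferInstance, ⟨?_⟩, ⟨QuotientGroup.congr _ _ e hm⟩⟩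
  exact (e.subgroupMap _).trans (MulEquiv.subgroupCongr hm)

end Cfsg.Agent.Lib.Fischer.M24.O8.Ty
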