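/-
The explicit `Fi₂₂` is of type `M(22)`.
-/
import Mathlib
import Cfsg.Agent.Lib.Fischer.M24.O8.FamChk6
import Cfsg.Agent.Lib.Fischer.M24.O8.TypesGen
import Cfsg.Agent.Lib.Fischer.M22.ExplicitRows

set_option autoImplicit false
set_option maxRecDepth 100000

namespace Cfsg.Agent.Lib.Fischer.M24.O8.Ty

open Cfsg Cfsg.Agent.Lib.Compute.ToddCoxeterCore Cfsg.Agent.Lib.Compute.TCChain
open Cfsg.Agent.Lib.Fischer.M24.O8.Sq
open Cfsg.Agent.Lib.Fischer.M22.Explicit Cfsg.Agent.Lib.Fischer.M22.Rows Cfsg.Agent.Lib.Fischer.M22.Rows.A3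

/-- The two sets of transpositions. -/
theorem dlt_inter {G : Type*} [Group G] (D : Set G) (a d : G) :
    {y : G | y ∈ D ∧ y ≠ a ∧ Commute a y} ∩ {y : G | y ∈ D ∧ y ≠ d ∧ Commute d y} = ES D a d := by
  ext y
  constructor
  · rintro ⟨⟨h1, h2, h3⟩, ⟨-, h5, h6⟩⟩
    exact ⟨h1, h3, h6, h2, h5⟩
  · rintro ⟨h1, h2, h3, h4, h5⟩
    exact ⟨⟨h1, h4, h2⟩, ⟨h1, h5, h3⟩⟩

theorem c6_eb : allFrom (fun p => bEq (Nat.blt 0 (c6 p)) (eb p)) (nat_lit 3510) (nat_lit 0) = true := by decide +kernel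

theorem c6_pos_iff (p : Fin NN) : 0 < c6 p ↔ eb p = true := by
  have h := bEq_true (lt_of_all c6_eb p)
  rw [← h]
  constructor
  · exact Nat.ble_eq_true_of_le
  · exact Nat.le_of_ble_eq_true

theorem range_aF6 : Set.range (aF c6) = ES D0 a0 d0 := by
  ext y
  rw [mem_ES_iff']
  constructor
  · rintro ⟨q, rfl⟩
    exact ⟨q.1, (c6_pos_iff _).1 q.2, rfl⟩
  · rintro ⟨p, hp, rfl⟩
    exact ⟨⟨p, (c6_pos_iff _).2 hp⟩, rfl⟩

/-- The projective reflection group in dimension six. -/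
theorem proj6 : IsProjReflectionGroupModThree (↥K0 ⧸ Subgroup.center ↥K0) 6 1 1 := by
  have hz : ∀ x ∈ Subgroup.closure (Set.range (aF c6)), (∀ j, x * aF c6 j * x⁻¹ = aF c6 j) → x = 1 := by
    intro x hx h
    rw [range_aF6] at hx
    apply eq_one_of_center_bot center_K0 hx
    intro a ha
    rw [← range_aF6] at ha
    obtain ⟨j, rfl⟩ := ha
    exact h j
  obtain ⟨f⟩ := iso_of_chk 6 c6 l6 (by norm_num) (by norm_num) chk6_1 chk6_2 chk6_3 hz
  have e1 : K0 = Subgroup.closure (Set.range (aF c6)) := by rw [range_aF6]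
  refine ⟨sqF 6, sqF_nondeg 6, ?_, ⟨(quotBot center_K0).trans ((MulEquiv.subgroupCongr e1).trans f)⟩⟩
  rw [gramDet_sqF]
  decide

/-- **The explicit `Fi₂₂` is of type `M(22)`.** -/
theorem type22 : IsOfTypeM22 G0 D0 := by
  refine ⟨center0, a0, a0_mem, t lb1, t_mem lb1, not_comm_a0_lb1,
    ⟨Cfsg.Agent.Lib.Compute.GF4.F4, inferInstance, inferInstance, ?_, localFacts_a0.2.2.2.1.2.1⟩, 1, one_ne_zero, ?_⟩
  · rfl
  · exact Cfsg.Agent.Lib.Fischer.Gen.DropPrim.projRefl_of_iso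
      (Cfsg.Agent.Lib.Fischer.Gen.DropPrim.qcongr (MulEquiv.subgroupCongr (congrArg Subgroup.closure (dlt_inter D0 a0 (t lb1))))) proj6

end Cfsg.Agent.Lib.Fischer.M24.O8.Ty
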