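/-
The explicit `Fi₂₃` is of type `M(23)`.
-/
import Mathlib
import Cfsg.Agent.Lib.Fischer.M24.O8.FamChk7
import Cfsg.Agent.Lib.Fischer.M24.O8.Types22
import Cfsg.Agent.Lib.Fischer.M23.A3

set_option autoImplicit false
set_option maxRecDepth 100000

namespace Cfsg.Agent.Lib.Fischer.M24.O8.Ty

open Cfsg Cfsg.Agent.Lib.Compute.ToddCoxeterCore Cfsg.Agent.Lib.Compute.TCChain
open Cfsg.Agent.Lib.Fischer.M24.O8.Sq
open Cfsg.Agent.Lib.Fischer.Local Cfsg.Agent.Lib.Fischer.Gen.DropPrim Cfsg.Agent.Lib.Fischer.Gen.Star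

/-- A trivial centre along an isomorphism. -/
theorem center_bot_of_equiv {K T : Type*} [Group K] [Group T] (e : K ≃* T) (hZ : Subgroup.center T = ⊥) : Subgroup.center K = ⊥ := by
  have := Cfsg.Agent.Lib.Components.Quasisimple.map_center_of_mulEquiv e
  rw [eq_bot_iff]
  intro k hk
  have h1 : e k ∈ Subgroup.center T := by
    rw [← this]
    exact ⟨k, hk, rfl⟩
  rw [hZ, Subgroup.mem_bot] at h1
  rw [Subgroup.mem_bot]
  exact e.map_eq_one_iff.1 h1

/-- The kernel of a surjection onto a group with trivial centre. -/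
theorem ker_eq_center {P T : Type*} [Group P] [Group T] (π : P →* T) (hs : Function.Surjective π) (hT : Subgroup.center T = ⊥)
    (hk : ∀ x, π x = 1 → x ∈ Subgroup.center P) : π.ker = Subgroup.center P := by
  apply le_antisymm
  · intro x hx
    exact hk x hx
  · intro x hx
    have h1 : π x ∈ Subgroup.center T := by
      rw [Subgroup.mem_center_iff]
      intro y
      obtain ⟨u, rfl⟩ := hs y
      rw [← map_mul, ← map_mul, (Subgroup.mem_center_iff.1 hx u)]
    rw [hT, Subgroup.mem_bot] at h1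
    exact h1

section explicit

open Cfsg.Agent.Lib.Fischer.M22.Rows.A3 (bEq bEq_true lt_of_all ES KS)
open Cfsg.Agent.Lib.Fischer.M22.Explicit (G0 D0 NN t center0)

theorem c7_E0 : allFrom (fun p => bEq (Nat.blt 0 (c7 p)) (Nat.testBit Cfsg.Agent.Lib.Fischer.M23.ExplicitData.E0T p)) (nat_lit 3510) (nat_lit 0) = true := by
  decide +kernel

theorem c7_pos_iff (p : Fin NN) : 0 < c7 p ↔ Nat.testBit Cfsg.Agent.Lib.Fischer.M23.ExplicitData.E0T p = true := by
  have h := bEq_true (lt_of_all c7_E0 p)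
  rw [← h]
  constructor
  · exact Nat.ble_eq_true_of_le
  · exact Nat.le_of_ble_eq_true

theorem range_aF7 : Set.range (aF c7) = Cfsg.Agent.Lib.Fischer.M23.Model.E0 := by
  ext y
  constructor
  · rintro ⟨q, rfl⟩
    exact ⟨q.1, rfl, (c7_pos_iff _).1 q.2⟩
  · rintro ⟨p, rfl, hp⟩
    exact ⟨⟨p, (c7_pos_iff _).2 hp⟩, rfl⟩

/-- The centre of `PΩ(7, 3)`. -/
theorem center_POmega_odd : Subgroup.center (Cfsg.POmega (ZMod 3) (Cfsg.quadFormOdd 3 (ZMod 3))) = ⊥ := by
  rw [← Cfsg.Agent.Lib.Classical.Orth.Models.coe_oddForm]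
  have hQ := Cfsg.Agent.Lib.Classical.Orth.Models.oddForm_nondegenerate (F := ZMod 3) (by decide) 3
  have hn : 5 ≤ Fintype.card (Unit ⊕ (Fin 3 ⊕ Fin 3)) := by simp
  have hs := Cfsg.Agent.Lib.Classical.Orth.Simple.isSimple_POmega hQ hn
  rcases hs.eq_bot_or_eq_top_of_normal _ (inferInstance : (Subgroup.center (Cfsg.POmega (ZMod 3) (⇑(Cfsg.Agent.Lib.Classical.Orth.Models.oddForm 3 (ZMod 3))))).Normal) with h | h
  · exact h
  · exfalso
    have h1 := Cfsg.Agent.Lib.Classical.Orth.Generation.commutator_omega_eq_top hQ hn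
    have h2 := congrArg (Subgroup.map (QuotientGroup.mk' (Subgroup.center ↥(Cfsg.Omega (ZMod 3) (⇑(Cfsg.Agent.Lib.Classical.Orth.Models.oddForm 3 (ZMod 3))))))) h1
    rw [commutator_def, Subgroup.map_commutator, Subgroup.map_top_of_surjective _ (QuotientGroup.mk'_surjective _)] at h2
    have h3 : commutator (Cfsg.POmega (ZMod 3) (⇑(Cfsg.Agent.Lib.Classical.Orth.Models.oddForm 3 (ZMod 3)))) = ⊥ :=
      (commutator_eq_bot_iff_center_eq_top _).2 h
    rw [commutator_def] at h3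
    have h4 : (⊤ : Subgroup (Cfsg.POmega (ZMod 3) (⇑(Cfsg.Agent.Lib.Classical.Orth.Models.oddForm 3 (ZMod 3))))) = ⊥ := h2.symm.trans h3
    exact top_ne_bot h4

theorem center_closure_E0 : Subgroup.center ↥(Subgroup.closure Cfsg.Agent.Lib.Fischer.M23.Model.E0) = ⊥ := by
  obtain ⟨f⟩ := Cfsg.Agent.Lib.Fischer.M23.K00.iso_closure_E0
  exact center_bot_of_equiv f center_POmega_odd

end explicit

section G1

open Cfsg.Agent.Lib.Fischer.M23.Explicit Cfsg.Agent.Lib.Fischer.M23.A3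
open Cfsg.Agent.Lib.Fischer.M22.Rows.A3 (ES KS)

theorem center_K1 : Subgroup.center ↥K1 = ⊥ := center_bot_of_equiv isoK1 center_closure_E0

/-- The projective reflection group in dimension seven. -/
theorem proj7 : IsProjReflectionGroupModThree (↥K1 ⧸ Subgroup.center ↥K1) 7 (-1) 1 := by
  have hz : ∀ x ∈ Subgroup.closure (Set.range (aF c7)), (∀ j, x * aF c7 j * x⁻¹ = aF c7 j) → x = 1 := by
    intro x hx h
    rw [range_aF7] at hx
    apply eq_one_of_center_bot center_closure_E0 hx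
    intro a ha
    rw [← range_aF7] at ha
    obtain ⟨j, rfl⟩ := ha
    exact h j
  obtain ⟨f⟩ := iso_of_chk 7 c7 l7 (by norm_num) (by norm_num) chk7_1 chk7_2 chk7_3 hz
  have e1 : Subgroup.closure Cfsg.Agent.Lib.Fischer.M23.Model.E0 = Subgroup.closure (Set.range (aF c7)) := by rw [range_aF7]
  refine ⟨sqF 7, sqF_nondeg 7, ?_, ⟨(quotBot center_K1).trans (isoK1.trans ((MulEquiv.subgroupCongr e1).trans f))⟩⟩
  rw [gramDet_sqF]
  decide

theorem KK_le_H1 : KK D1 z1 ≤ H1 := closure_Dlt.le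

/-- The map from the centralizer of `z1`. -/
noncomputable def piK : ↥(KK D1 z1) →* G0 := ψ.comp (Subgroup.inclusion KK_le_H1)

theorem piK_val (x : ↥(KK D1 z1)) : piK x = π1 x.1 := (π1_of_mem (KK_le_H1 x.2)).symm

theorem piK_surj : Function.Surjective piK := by
  intro y
  obtain ⟨h, hh, e⟩ := π1_surj y
  exact ⟨⟨h, closure_Dlt.ge hh⟩, by rw [piK_val]; exact e⟩

theorem piK_ker : piK.ker = Subgroup.center ↥(KK D1 z1) := by
  apply ker_eq_center piK piK_surj Cfsg.Agent.Lib.Fischer.M22.Explicit.center0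
  rintro ⟨x, hx⟩ h
  have h1 : π1 x = π1 1 := by
    rw [← piK_val ⟨x, hx⟩, h, π1_one]
  have hx' : x ∈ H1 := KK_le_H1 hx
  have hc : ∀ y : ↥(KK D1 z1), y * ⟨x, hx⟩ = ⟨x, hx⟩ * y := by
    rintro ⟨y, hy⟩
    apply Subtype.ext
    rcases (π1_eq_iff hx' (one_mem H1)).1 h1 with h2 | h2
    · show y * x = x * y
      rw [h2, one_mul, mul_one]
    · show y * x = x * y
      rw [one_mul] at h2
      rw [h2]
      exact (z1_comm (KK_le_H1 hy))
  exact Subgroup.mem_center_iff.2 hc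

/-- **The explicit `Fi₂₃` is of type `M(23)`.** -/
theorem type23 : IsOfTypeM23 G1 D1 := by
  obtain ⟨e, he⟩ := exists_quot_equiv piK piK_surj piK_ker
  have hSS : e ⁻¹' Cfsg.Agent.Lib.Fischer.M22.Explicit.D0 = SS D1 z1 := by
    apply SS_eq_preimage piK e he
    · intro x hx
      rw [piK_val]
      exact π1_mem_D0 hx
    · intro y hy
      obtain ⟨b, hb, e1⟩ := π1_surj_D hy
      exact ⟨⟨b, Subgroup.subset_closure hb⟩, hb, by rw [piK_val]; exact e1⟩
  have h22 := isOfTypeM22_of_equiv e type22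
  rw [hSS] at h22
  refine ⟨center1, z1, z1_mem, t lb1, t_mem lb1, not_comm_z1_lb1, h22, 1, one_ne_zero, ?_⟩
  exact projRefl_of_iso (qcongr (MulEquiv.subgroupCongr (congrArg Subgroup.closure (dlt_inter D1 z1 (t lb1))))) proj7

end G1

end Cfsg.Agent.Lib.Fischer.M24.O8.Ty
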