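/-
The explicit `Fi₂₄` is of type `M(24)`.
-/
import Mathlib
import Cfsg.Agent.Lib.Fischer.M24.O8.Types23
import Cfsg.Agent.Lib.Fischer.M24.O8.Cent
import Cfsg.Agent.Lib.Fischer.M24.E.Lam

set_option autoImplicit false
set_option maxRecDepth 100000

namespace Cfsg.Agent.Lib.Fischer.M24.O8.Ty

open Cfsg Cfsg.Agent.Lib.Fischer.Local Cfsg.Agent.Lib.Fischer.Gen.DropPrim Cfsg.Agent.Lib.Fischer.Gen.Star

section LLpart

open Cfsg.Agent.Lib.Fischer.M24.O8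

/-- The subgroup `LL` is generated by the base set. -/
theorem closure_E0_eq_LL : Subgroup.closure Cfsg.Agent.Lib.Fischer.M24.Model.E0 = LL := by
  apply le_antisymm
  · apply (Subgroup.closure_le _).2
    rintro q ⟨p, rfl, hp⟩
    obtain ⟨h, hh, e⟩ := exists_conj_E p hp
    rw [← e]
    exact mul_mem (mul_mem hh L1_mem_LL) (inv_mem hh)
  · apply (Subgroup.closure_le _).2
    rintro s (rfl | ⟨k, hk, rfl⟩)
    · apply Subgroup.subset_closure
      exact ⟨bq, rfl, Em_of_mem tb_mem_LL⟩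
    · apply Subgroup.subset_closure
      refine ⟨⟨lbk k, lbk_lt k hk⟩, (t_lbk hk).symm, ?_⟩
      apply Em_of_mem
      rw [t_lbk hk]
      exact N2_le_LL (Subgroup.subset_closure ⟨k, hk, rfl⟩)

theorem center_LL : Subgroup.center ↥LL = ⊥ := by
  rw [eq_bot_iff]
  rintro ⟨x, hx⟩ hc
  rw [Subgroup.mem_bot]
  apply Subtype.ext
  apply eq_one_of_comm_N1
  intro y hy
  have h := Subgroup.mem_center_iff.1 hc ⟨y, N1_le_LL hy⟩
  exact (congrArg Subtype.val h).symm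

end LLpart

section G2

open Cfsg.Agent.Lib.Fischer.M24.Explicit
open Cfsg.Agent.Lib.Fischer.M22 (Ant Ea)

theorem image_Ea2 : π2 '' Ea D2 z2 (t qk) = Cfsg.Agent.Lib.Fischer.M24.Model.E0 := by
  ext q
  constructor
  · rintro ⟨b, ⟨hb, hc⟩, rfl⟩
    obtain ⟨q', hq', rfl⟩ := mem_Dlt_iff.1 hb
    exact ⟨toL1 q' hq', π2_t hq', (E0_iff q' hq').2 hc⟩
  · rintro ⟨p, rfl, hp⟩
    have hp1 : (p : ℕ) < 31671 := p.2
    refine ⟨t ⟨p, Ant_lift p⟩, ⟨(t_mem_Dlt_iff _).2 hp1, (E0_iff ⟨p, Ant_lift p⟩ hp1).1 hp⟩, ?_⟩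
    rw [π2_t hp1]
    rfl

theorem dlt_inter2 : {y : G2 | y ∈ D2 ∧ y ≠ z2 ∧ Commute z2 y} ∩ {y : G2 | y ∈ D2 ∧ y ≠ t qk ∧ Commute (t qk) y} = Ea D2 z2 (t qk) := by
  ext y
  constructor
  · rintro ⟨h1, -, -, h3⟩
    exact ⟨h1, h3⟩
  · rintro ⟨h1, h2⟩
    refine ⟨h1, h1.1, ?_, h2⟩
    rintro rfl
    exact t_qk_mem_Ant.2 h1.2.2

/-- The subgroup `L`. -/
noncomputable abbrev L2 : Subgroup G2 := Subgroup.closure (Ea D2 z2 (t qk))

theorem L2_le_H2 : L2 ≤ H2 := by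
  apply (Subgroup.closure_le _).2
  intro y hy
  exact mem_H2_of_Dlt hy.1

theorem z2_not_mem : z2 ∉ L2 := by
  intro h
  have h1 : L2 ≤ Subgroup.centralizer ({t qk} : Set G2) := by
    apply (Subgroup.closure_le _).2
    intro y hy
    rw [SetLike.mem_coe, Subgroup.mem_centralizer_singleton_iff]
    exact hy.2.eq.symm
  have h2 := Subgroup.mem_centralizer_singleton_iff.1 (h1 h)
  exact t_qk_mem_Ant.2 h2

theorem π2_one : π2 1 = 1 := by
  have h := π2_mul (one_mem H2) (one_mem H2)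
  rw [mul_one] at h
  exact (mul_eq_left.1 h.symm)

/-- The map on the subgroup `L`. -/
noncomputable def ψL : ↥L2 →* G1 :=
  MonoidHom.mk' (fun x => π2 x.1) (fun a b => π2_mul (L2_le_H2 a.2) (L2_le_H2 b.2))

theorem ψL_val (x : ↥L2) : ψL x = π2 x.1 := rfl

theorem ψL_inj : Function.Injective ψL := by
  rw [injective_iff_map_eq_one]
  intro x hx
  rw [ψL_val, ← π2_one] at hx
  rcases (π2_eq_iff (L2_le_H2 x.2) (one_mem H2)).1 hx with h | h
  · exact Subtype.ext h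
  · rw [one_mul] at h
    exact absurd (h ▸ x.2) z2_not_mem

theorem range_ψL : ψL.range = Cfsg.Agent.Lib.Fischer.M24.O8.LL := by
  rw [← closure_E0_eq_LL]
  apply le_antisymm
  · rintro _ ⟨x, rfl⟩
    rw [ψL_val]
    have key : ∀ y ∈ L2, y ∈ H2 ∧ π2 y ∈ Subgroup.closure Cfsg.Agent.Lib.Fischer.M24.Model.E0 := by
      intro y hy
      induction hy using Subgroup.closure_induction with
      | mem y hy =>
        exact ⟨mem_H2_of_Dlt hy.1, Subgroup.subset_closure (image_Ea2 ▸ ⟨y, hy, rfl⟩)⟩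
      | one => exact ⟨one_mem _, by rw [π2_one]; exact one_mem _⟩
      | mul a b _ _ iha ihb =>
        refine ⟨mul_mem iha.1 ihb.1, ?_⟩
        rw [π2_mul iha.1 ihb.1]
        exact mul_mem iha.2 ihb.2
      | inv a _ iha =>
        refine ⟨inv_mem iha.1, ?_⟩
        rw [π2_inv iha.1]
        exact inv_mem iha.2
    exact (key x.1 x.2).2
  · rw [Subgroup.closure_le]
    intro q hq
    rw [← image_Ea2] at hq
    obtain ⟨y, hy, rfl⟩ := hq
    exact ⟨⟨y, Subgroup.subset_closure hy⟩, rfl⟩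

/-- `L` is isomorphic to the subgroup `LL` of `G1`. -/
noncomputable def isoL2 : ↥L2 ≃* ↥Cfsg.Agent.Lib.Fischer.M24.O8.LL :=
  (MonoidHom.ofInjective ψL_inj).trans (MulEquiv.subgroupCongr range_ψL)

theorem center_L2 : Subgroup.center ↥L2 = ⊥ := center_bot_of_equiv isoL2 center_LL

/-- The normal subgroup of the central quotient of `L` and its quotient. -/
theorem tail24 : ∃ (N : Subgroup (↥L2 ⧸ Subgroup.center ↥L2)) (_ : N.Normal),
      Nonempty (↥N ≃* POmega (ZMod 3) (quadFormPlus 4 (ZMod 3))) ∧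
      Nonempty ((↥L2 ⧸ Subgroup.center ↥L2) ⧸ N ≃* Equiv.Perm (Fin 3)) := by
  obtain ⟨M, hM, ⟨f1⟩, ⟨f2⟩⟩ := exists_normal_of_equiv ((quotBot center_L2).trans isoL2) Cfsg.Agent.Lib.Fischer.M24.O8.N1L
  obtain ⟨f3⟩ := Cfsg.Agent.Lib.Fischer.M24.O8.N1_iso
  obtain ⟨f4⟩ := Cfsg.Agent.Lib.Fischer.M24.O8.quot_iso
  exact ⟨M, hM, ⟨f1.trans ((Subgroup.subgroupOfEquivOfLe Cfsg.Agent.Lib.Fischer.M24.O8.N1_le_LL).trans f3)⟩, ⟨f2.trans f4⟩⟩

theorem KK_le_H2 : KK D2 z2 ≤ H2 := closure_Dlt.le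

/-- The map from the centralizer of `z2`. -/
noncomputable def piK2 : ↥(KK D2 z2) →* G1 :=
  MonoidHom.mk' (fun x => π2 x.1) (fun a b => π2_mul (KK_le_H2 a.2) (KK_le_H2 b.2))

theorem piK2_val (x : ↥(KK D2 z2)) : piK2 x = π2 x.1 := rfl

theorem piK2_surj : Function.Surjective piK2 := by
  intro y
  obtain ⟨h, hh, e⟩ := π2_surj y
  exact ⟨⟨h, closure_Dlt.ge hh⟩, e⟩

theorem piK2_ker : piK2.ker = Subgroup.center ↥(KK D2 z2) := by
  apply ker_eq_center piK2 piK2_surj Cfsg.Agent.Lib.Fischer.M23.Explicit.center1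
  rintro ⟨x, hx⟩ h
  have h1 : π2 x = π2 1 := by
    rw [π2_one]
    exact h
  have hx' : x ∈ H2 := KK_le_H2 hx
  have hc : ∀ y : ↥(KK D2 z2), y * ⟨x, hx⟩ = ⟨x, hx⟩ * y := by
    rintro ⟨y, hy⟩
    apply Subtype.ext
    rcases (π2_eq_iff hx' (one_mem H2)).1 h1 with h2 | h2
    · show y * x = x * y
      rw [h2, one_mul, mul_one]
    · show y * x = x * y
      rw [one_mul] at h2
      rw [h2]
      exact (comm_z2_iff y).2 (KK_le_H2 hy)
  exact Subgroup.mem_center_iff.2 hc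

/-- **The explicit `Fi₂₄` is of type `M(24)`.** -/
theorem type24 : IsOfTypeM24 G2 D2 := by
  obtain ⟨e, he⟩ := exists_quot_equiv piK2 piK2_surj piK2_ker
  have hSS : e ⁻¹' Cfsg.Agent.Lib.Fischer.M23.Explicit.D1 = SS D2 z2 := by
    apply SS_eq_preimage piK2 e he
    · intro x hx
      rw [piK2_val]
      exact π2_mem_D1 hx
    · intro y hy
      obtain ⟨b, hb, e1⟩ := π2_surj_D hy
      exact ⟨⟨b, Subgroup.subset_closure hb⟩, hb, e1⟩
  have h23 := isOfTypeM23_of_equiv e type23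
  rw [hSS] at h23
  obtain ⟨N, hN, h1, h2⟩ := tail24
  refine ⟨center2, z2, z2_mem, t qk, t_mem qk, t_qk_mem_Ant.2, h23, ?_⟩
  have e1 : Subgroup.closure ({y : G2 | y ∈ D2 ∧ y ≠ z2 ∧ Commute z2 y} ∩ {y : G2 | y ∈ D2 ∧ y ≠ t qk ∧ Commute (t qk) y}) = L2 :=
    congrArg Subgroup.closure dlt_inter2
  obtain ⟨M, hM, ⟨f1⟩, ⟨f2⟩⟩ := exists_normal_of_equiv (qcongr (MulEquiv.subgroupCongr e1)) N
  obtain ⟨f3⟩ := h1
  obtain ⟨f4⟩ := h2
  exact ⟨M, hM, ⟨f1.trans f3⟩, ⟨f2.trans f4⟩⟩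

end G2

end Cfsg.Agent.Lib.Fischer.M24.O8.Ty
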